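import Mathlib
import Cfsg.Agent.Lib.Helper83.MinSU.Defs
import Cfsg.Agent.Lib.Helper81.MinSU.G1
import Cfsg.Agent.S0285

set_option autoImplicit false

/-! # S2152 farm (helper83): tools for EVEN4 / ODD4 (helper63) -/

namespace Cfsg.Agent.Lib.Helper63.MinSU

open Matrix Cfsg.Agent.Lib.Helper13 Cfsg.Agent.Lib.Helper5 Cfsg.Agent.Lib.Helper57.RootSU
  Cfsg.Agent.Lib.Helper83.MinSU

variable {F : Type*} [Field F] [Fintype F] {q m n : ℕ}

/-- the natural action of `SU_n(q)` on vectors -/
@[reducible] def suAct (n : ℕ) (F : Type*) [Field F] (q : ℕ) :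
    MulAction (Cfsg.SU n F q) (Fin n → F) where
  smul g v := g.1.1 *ᵥ v
  one_smul v := SU_one_mulVec v
  mul_smul g h v := SU_mul_mulVec g h v

/-- the fixed field of `x ↦ x ^ q` has `q` elements -/
theorem card_Fq (hF : Fintype.card F = q ^ 2) : Nat.card {c : F // c ^ q = c} = q := by
  classical
  have hq := two_le_of_card_sq hF
  have h1 := card_fixed_ne_zero hF
  have h2 : Nat.card {c : F // c ^ q = c} = (Finset.univ.filter (fun c : F => c ^ q = c)).card := by
    rw [Nat.card_eq_fintype_card]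
    exact Fintype.card_of_subtype _ (fun x => by simp)
  have h3 : (Finset.univ.erase (0 : F)).filter (fun c => c ^ q = c) =
      (Finset.univ.filter (fun c : F => c ^ q = c)).erase 0 := by
    ext x
    simp only [Finset.mem_filter, Finset.mem_erase, Finset.mem_univ, true_and, and_true]
  have h4 : (0 : F) ∈ Finset.univ.filter (fun c : F => c ^ q = c) := by
    simp only [Finset.mem_filter, Finset.mem_univ, true_and]
    exact zero_pow (by omega)
  rw [h3, Finset.card_erase_of_mem h4] at h1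
  have h5 : 0 < (Finset.univ.filter (fun c : F => c ^ q = c)).card := Finset.card_pos.mpr ⟨0, h4⟩
  omega

/-- there are `q` skew elements -/
theorem card_Sk (hF : Fintype.card F = q ^ 2) : Nat.card {c : F // c + c ^ q = 0} = q := by
  obtain ⟨κ, hκ0, hκ⟩ := exists_skew_q hF
  have hκq : κ ^ q = -κ := by linear_combination hκ
  refine (Nat.card_congr (β := {c : F // c ^ q = c}) ?_).trans (card_Fq hF)
  refine
    { toFun := fun c => ⟨κ⁻¹ * c.1, ?_⟩
      invFun := fun c => ⟨κ * c.1, ?_⟩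
      left_inv := fun c => Subtype.ext (by
        show κ * (κ⁻¹ * c.1) = c.1
        rw [← mul_assoc, mul_inv_cancel₀ hκ0, one_mul])
      right_inv := fun c => Subtype.ext (by
        show κ⁻¹ * (κ * c.1) = c.1
        rw [← mul_assoc, inv_mul_cancel₀ hκ0, one_mul]) }
  · have hc : c.1 ^ q = -c.1 := by linear_combination c.2
    rw [mul_pow, inv_pow, hκq, hc]
    field_simp
  · rw [mul_pow, hκq, c.2]
    ring

/-- orbits of `SU_n(q)` on vectors -/
def suOrbit (q : ℕ) (x : Fin n → F) : Set (Fin n → F) :=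
  letI := suAct n F q
  MulAction.orbit (Cfsg.SU n F q) x

/-- the orbit of a nonzero isotropic vector -/
theorem mem_orbit_iso (hF : Fintype.card F = q ^ 2) (hn : 3 ≤ n) (x : Fin n → F) (hx0 : x ≠ 0)
    (hx : Cfsg.hermForm n F q x x = 0) (v : Fin n → F) :
    v ∈ suOrbit q x
      ↔ v ≠ 0 ∧ Cfsg.hermForm n F q v v = 0 := by
  constructor
  · rintro ⟨g, rfl⟩
    refine ⟨Cfsg.Agent.Lib.Helper57.RootSU.su_mulVec_ne_zero g hx0, ?_⟩
    show Cfsg.hermForm n F q (g.1.1 *ᵥ x) (g.1.1 *ᵥ x) = 0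
    rw [SU_preserves]; exact hx
  · rintro ⟨hv0, hv⟩
    obtain ⟨g, hg⟩ := Cfsg.Agent.Lib.Helper81.MinSU.exists_su_map hF hn x v hx0 hv0 hx hv
    exact ⟨g, hg⟩

theorem card_orbit_iso (hF : Fintype.card F = q ^ 2) (hn : 3 ≤ n) (he : Even n) (x : Fin n → F)
    (hx0 : x ≠ 0) (hx : Cfsg.hermForm n F q x x = 0) :
    Nat.card (suOrbit q x)
      = (q ^ n - 1) * (q ^ (n - 1) + 1) := by
  classical
  have h1 := Cfsg.Agent.S0285.result hF n
  rw [if_pos he] at h1
  have h2 : {v : Fin n → F | Cfsg.hermForm n F q v v = 0}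
      = insert 0 (suOrbit q x) := by
    ext v
    rw [Set.mem_insert_iff, mem_orbit_iso hF hn x hx0 hx]
    constructor
    · intro hv
      by_cases hv0 : v = 0
      · left; exact hv0
      · right; exact ⟨hv0, hv⟩
    · rintro (rfl | ⟨-, hv⟩)
      · exact hermForm_zero_left _
      · exact hv
  have h3 : (0 : Fin n → F) ∉ suOrbit q x := by
    rw [mem_orbit_iso hF hn x hx0 hx]
    exact fun h => h.1 rfl
  have h4 : Nat.card {v : Fin n → F // Cfsg.hermForm n F q v v = 0}
      = {v : Fin n → F | Cfsg.hermForm n F q v v = 0}.ncard := rfl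
  rw [h4, h2, Set.ncard_insert_of_notMem h3 (Set.toFinite _)] at h1
  rw [Nat.card_coe_set_eq]
  omega

end Cfsg.Agent.Lib.Helper63.MinSU
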