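import Mathlib
import Cfsg.Agent.Lib.Helper8.MinSU.NUM

set_option autoImplicit false

/-! # S2152 farm (helper83): arithmetic for EVEN4 / ODD4 (helper63) -/

namespace Cfsg.Agent.Lib.Helper63.MinSU

open Cfsg.Agent.Lib.Helper83.MinSU

theorem NU6 {q : ℕ} (hq : 2 ≤ q) : NU q 6 = (q ^ 4 + q ^ 2 + 1) * (q ^ 5 + 1) := by
  have h1 := Cfsg.Agent.Lib.Helper8.MinSU.NU_mul (q := q) (n := 6) hq (by decide)
  obtain ⟨t, ht⟩ : ∃ t, q ^ 2 = t + 1 := ⟨q ^ 2 - 1, by have : 1 ≤ q ^ 2 := Nat.one_le_pow _ _ (by omega); omega⟩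
  have ht0 : 0 < t := by
    have : 4 ≤ q ^ 2 := by nlinarith
    omega
  have e6 : q ^ 6 = (t + 1) ^ 3 := by rw [← ht]; ring
  have e4 : q ^ 4 = (t + 1) ^ 2 := by rw [← ht]; ring
  have e61 : q ^ 6 - 1 = t * (t ^ 2 + 3 * t + 3) := by
    rw [e6]
    have : (t + 1) ^ 3 = t * (t ^ 2 + 3 * t + 3) + 1 := by ring
    omega
  have e21 : q ^ 2 - 1 = t := by omega
  rw [e61, e21] at h1
  have h2 : NU q 6 * t = ((t ^ 2 + 3 * t + 3) * (q ^ (6 - 1) + 1)) * t := by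
    rw [h1]; ring
  have h3 := Nat.eq_of_mul_eq_mul_right ht0 h2
  rw [h3, e4, ht]
  ring

theorem NU6_le {q : ℕ} (hq : 2 ≤ q) : NU q 6 ≤ q ^ 7 * (q ^ 3 + 1) := by
  rw [NU6 hq]
  have h1 : 1 ≤ q ^ 5 := Nat.one_le_pow _ _ (by omega)
  have h2 : q ^ 2 ≤ q ^ 5 := Nat.pow_le_pow_right (by omega) (by omega)
  have h4 : q ^ 4 ≤ q ^ 5 := Nat.pow_le_pow_right (by omega) (by omega)
  have h7 : 4 * q ^ 5 ≤ q ^ 7 := by
    have : 4 ≤ q ^ 2 := by nlinarith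
    calc 4 * q ^ 5 ≤ q ^ 2 * q ^ 5 := Nat.mul_le_mul_right _ this
      _ = q ^ 7 := by ring
  have h9 : q ^ 7 ≤ q ^ 9 := Nat.pow_le_pow_right (by omega) (by omega)
  have h10 : 2 * q ^ 9 ≤ q ^ 10 := by
    calc 2 * q ^ 9 ≤ q * q ^ 9 := Nat.mul_le_mul_right _ hq
      _ = q ^ 10 := by ring
  have e1 : (q ^ 4 + q ^ 2 + 1) * (q ^ 5 + 1) = q ^ 9 + q ^ 7 + q ^ 5 + q ^ 4 + q ^ 2 + 1 := by ring
  have e2 : q ^ 7 * (q ^ 3 + 1) = q ^ 10 + q ^ 7 := by ring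
  rw [e1, e2]
  omega

theorem even4_arith (q δ ρ ξ I N c Xc : ℕ)
    (h1 : (q ^ 4 - 1) * (q ^ 3 + 1) * ρ ≤ I * c) (hc : c + 1 ≤ δ) (h2 : ξ * ρ = Xc)
    (hX : q ^ 5 ≤ Xc) (h3 : q * ξ ≤ δ) (h4 : δ ≤ q ^ 4) (hN : N ≤ q ^ 7 * (q ^ 3 + 1))
    (hδ : 2 ≤ δ) : δ * N ≤ q ^ 9 * I := by
  obtain ⟨e, rfl⟩ : ∃ e, δ = e + 1 := ⟨δ - 1, by omega⟩
  have he : 1 ≤ e := by omega
  have hce : c ≤ e := by omega
  set O := (q ^ 4 - 1) * (q ^ 3 + 1) with hO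
  have hA : q ^ 6 ≤ (e + 1) * ρ := by
    calc q ^ 6 = q * q ^ 5 := by ring
      _ ≤ q * (ξ * ρ) := Nat.mul_le_mul_left _ (by rw [h2]; exact hX)
      _ = (q * ξ) * ρ := by ring
      _ ≤ (e + 1) * ρ := Nat.mul_le_mul_right _ h3
  have hB : O * q ^ 6 ≤ I * e * (e + 1) := by
    calc O * q ^ 6 ≤ O * ((e + 1) * ρ) := Nat.mul_le_mul_left _ hA
      _ = (O * ρ) * (e + 1) := by ring
      _ ≤ (I * c) * (e + 1) := Nat.mul_le_mul_right _ h1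
      _ ≤ (I * e) * (e + 1) := Nat.mul_le_mul_right _ (Nat.mul_le_mul_left _ hce)
  have he4 : e ≤ q ^ 4 - 1 := by omega
  have hC : ((e + 1) * N) * (e * (e + 1)) ≤ (q ^ 9 * I) * (e * (e + 1)) := by
    calc ((e + 1) * N) * (e * (e + 1))
        ≤ (q ^ 4 * (q ^ 7 * (q ^ 3 + 1))) * ((q ^ 4 - 1) * q ^ 4) :=
          Nat.mul_le_mul (Nat.mul_le_mul h4 hN) (Nat.mul_le_mul he4 h4)
      _ = q ^ 9 * (O * q ^ 6) := by rw [hO]; ring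
      _ ≤ q ^ 9 * (I * e * (e + 1)) := Nat.mul_le_mul_left _ hB
      _ = (q ^ 9 * I) * (e * (e + 1)) := by ring
  exact Nat.le_of_mul_le_mul_right hC (by positivity)

end Cfsg.Agent.Lib.Helper63.MinSU
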