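import Mathlib
import Cfsg.Agent.Lib.Helper63.MinSU.Tools

set_option autoImplicit false
set_option linter.unusedSectionVars false

/-! # S2152 farm (helper83): the unipotent radical of a point stabiliser (helper63) -/

namespace Cfsg.Agent.Lib.Helper63.MinSU

open Matrix Cfsg.Agent.Lib.Helper13 Cfsg.Agent.Lib.Helper5 Cfsg.Agent.Lib.Helper57.RootSU
  Cfsg.Agent.Lib.Helper83.MinSU

variable {F : Type*} [Field F] [Fintype F] {q m n : ℕ}

/-- the unipotent radical of the stabiliser of the isotropic point `⟨x⟩` -/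
def Qx (q : ℕ) (x : Fin n → F) : Subgroup (Cfsg.SU n F q) where
  carrier := {g | g.1.1 *ᵥ x = x ∧
    ∀ z, Cfsg.hermForm n F q z x = 0 → ∃ c : F, g.1.1 *ᵥ z = z + c • x}
  one_mem' := ⟨SU_one_mulVec x, fun z _ => ⟨0, by rw [SU_one_mulVec, zero_smul, add_zero]⟩⟩
  mul_mem' := by
    rintro g g' ⟨h1, h2⟩ ⟨h1', h2'⟩
    refine ⟨by rw [SU_mul_mulVec, h1', h1], fun z hz => ?_⟩
    obtain ⟨c', hc'⟩ := h2' z hz
    obtain ⟨c, hc⟩ := h2 z hz
    refine ⟨c + c', ?_⟩
    rw [SU_mul_mulVec, hc', mulVec_add, mulVec_smul, h1, hc]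
    module
  inv_mem' := by
    rintro g ⟨h1, h2⟩
    have hx : (g⁻¹).1.1 *ᵥ x = x := by
      conv_lhs => rw [← h1]
      exact SU_inv_mulVec_mulVec g x
    refine ⟨hx, fun z hz => ?_⟩
    obtain ⟨c, hc⟩ := h2 z hz
    refine ⟨-c, ?_⟩
    have h3 : (g⁻¹).1.1 *ᵥ (g.1.1 *ᵥ z) = (g⁻¹).1.1 *ᵥ (z + c • x) := by rw [hc]
    rw [SU_inv_mulVec_mulVec, mulVec_add, mulVec_smul, hx] at h3
    rw [neg_smul]
    exact eq_add_neg_of_add_eq h3.symm

theorem mem_Qx {x : Fin n → F} {g : Cfsg.SU n F q} : g ∈ Qx q x ↔ g.1.1 *ᵥ x = x ∧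
    ∀ z, Cfsg.hermForm n F q z x = 0 → ∃ c : F, g.1.1 *ᵥ z = z + c • x := Iff.rfl

/-- decomposition along a hyperbolic pair -/
theorem hyp_decomp (x y0 : Fin n → F)
    (hxx : Cfsg.hermForm n F q x x = 0) (hyy : Cfsg.hermForm n F q y0 y0 = 0)
    (hyx : Cfsg.hermForm n F q y0 x = 1) (hxy : Cfsg.hermForm n F q x y0 = 1) (v : Fin n → F) :
    ∃ z, Cfsg.hermForm n F q z x = 0 ∧ Cfsg.hermForm n F q z y0 = 0 ∧
      v = Cfsg.hermForm n F q v y0 • x + Cfsg.hermForm n F q v x • y0 + z := by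
  refine ⟨v - Cfsg.hermForm n F q v y0 • x - Cfsg.hermForm n F q v x • y0, ?_, ?_, by abel⟩
  · rw [hermForm_sub_left, hermForm_sub_left, hermForm_smul_left, hermForm_smul_left, hxx, hyx]
    ring
  · rw [hermForm_sub_left, hermForm_sub_left, hermForm_smul_left, hermForm_smul_left, hxy, hyy]
    ring

/-- an element of `Qx` is determined by the image of `y0` -/
theorem Qx_inj (x y0 : Fin n → F)
    (hxx : Cfsg.hermForm n F q x x = 0) (hyy : Cfsg.hermForm n F q y0 y0 = 0)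
    (hyx : Cfsg.hermForm n F q y0 x = 1) (hxy : Cfsg.hermForm n F q x y0 = 1)
    (g g' : Cfsg.SU n F q) (hg : g ∈ Qx q x) (hg' : g' ∈ Qx q x)
    (h : g.1.1 *ᵥ y0 = g'.1.1 *ᵥ y0) : g = g' := by
  have key : ∀ k ∈ Qx q x, k.1.1 *ᵥ y0 = y0 → k = 1 := by
    intro k hk hky
    apply SU_ext_mulVec
    intro v
    rw [SU_one_mulVec]
    obtain ⟨z, hzx, hzy, hv⟩ := hyp_decomp x y0 hxx hyy hyx hxy v
    obtain ⟨c, hc⟩ := hk.2 z hzx
    have h1 := SU_preserves k z y0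
    rw [hky, hc, hermForm_add_left, hermForm_smul_left, hxy, hzy, zero_add, mul_one] at h1
    rw [h1, zero_smul, add_zero] at hc
    conv_lhs => rw [hv]
    rw [mulVec_add, mulVec_add, mulVec_smul, mulVec_smul, hk.1, hky, hc, ← hv]
  have h1 : g'⁻¹ * g = 1 := by
    apply key _ ((Qx q x).mul_mem ((Qx q x).inv_mem hg') hg)
    rw [SU_mul_mulVec, h, SU_inv_mulVec_mulVec]
  exact (inv_mul_eq_one.1 h1).symm

theorem eSU_mem_Qx (hF : Fintype.card F = q ^ 2) (x u : Fin n → F) (a : F)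
    (hxx : Cfsg.hermForm n F q x x = 0) (hux : Cfsg.hermForm n F q u x = 0)
    (ha : a + a ^ q + Cfsg.hermForm n F q u u = 0) : eSU hF x u a hxx hux ha ∈ Qx q x := by
  have hxu : Cfsg.hermForm n F q x u = 0 := by
    have hq := two_le_of_card_sq hF
    rw [← hermForm_swap hF, hux, zero_pow (by omega)]
  refine ⟨?_, fun z hz => ⟨-Cfsg.hermForm n F q z u, ?_⟩⟩
  · rw [eSU_mulVec, hxx, hxu]
    simp
  · rw [eSU_mulVec, hz]
    simp [sub_eq_add_neg]

/-- a lower bound for the order of `Qx` -/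
theorem card_Qx_ge (hF : Fintype.card F = q ^ 2) (x y0 : Fin n → F)
    (hxx : Cfsg.hermForm n F q x x = 0) (hyy : Cfsg.hermForm n F q y0 y0 = 0)
    (hyx : Cfsg.hermForm n F q y0 x = 1) (hxy : Cfsg.hermForm n F q x y0 = 1) :
    q ^ (2 * n) * q ≤ q ^ 4 * Nat.card (Qx q x) := by
  classical
  have hq := two_le_of_card_sq hF
  set U := {u : Fin n → F // Cfsg.hermForm n F q u x = 0 ∧ Cfsg.hermForm n F q u y0 = 0} with hU
  -- `|U| ≥ q^(2n-4)`
  have hUcard : q ^ (2 * n) ≤ q ^ 4 * Nat.card U := by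
    let f : (F × F) × U → (Fin n → F) := fun p => p.1.1 • x + p.1.2 • y0 + p.2.1
    have hf : Function.Surjective f := by
      intro v
      obtain ⟨z, hzx, hzy, hv⟩ := hyp_decomp x y0 hxx hyy hyx hxy v
      exact ⟨((_, _), ⟨z, hzx, hzy⟩), hv.symm⟩
    have h1 := Nat.card_le_card_of_surjective f hf
    rw [Nat.card_prod, Nat.card_prod, Nat.card_eq_fintype_card (α := F), hF,
      Nat.card_eq_fintype_card (α := Fin n → F), Fintype.card_fun, Fintype.card_fin, hF] at h1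
    calc q ^ (2 * n) = (q ^ 2) ^ n := by rw [pow_mul]
      _ ≤ q ^ 2 * q ^ 2 * Nat.card U := h1
      _ = q ^ 4 * Nat.card U := by ring
  -- choice of `a(u)`
  have hex : ∀ u : U, ∃ a : F, a + a ^ q + Cfsg.hermForm n F q u.1 u.1 = 0 := by
    intro u
    obtain ⟨a, ha⟩ := exists_tr hF (-Cfsg.hermForm n F q u.1 u.1)
      (by rw [neg_pow_q hF, hermForm_swap hF])
    exact ⟨a, by rw [ha]; ring⟩
  choose a ha using hex
  have hval : ∀ (u : U) (s : {c : F // c + c ^ q = 0}),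
      (a u + s.1) + (a u + s.1) ^ q + Cfsg.hermForm n F q u.1 u.1 = 0 := by
    intro u s
    rw [add_pow_q hF]
    linear_combination ha u + s.2
  let ψ : U × {c : F // c + c ^ q = 0} → Qx q x := fun p =>
    ⟨eSU hF x p.1.1 (a p.1 + p.2.1) hxx p.1.2.1 (hval p.1 p.2), eSU_mem_Qx hF _ _ _ _ _ _⟩
  have hψ : Function.Injective ψ := by
    rintro ⟨u, s⟩ ⟨u', s'⟩ h
    have h1 : eSU hF x u.1 (a u + s.1) hxx u.2.1 (hval u s)
        = eSU hF x u'.1 (a u' + s'.1) hxx u'.2.1 (hval u' s') := congrArg Subtype.val h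
    have h2 : (eSU hF x u.1 (a u + s.1) hxx u.2.1 (hval u s)).1.1 *ᵥ y0
        = (eSU hF x u'.1 (a u' + s'.1) hxx u'.2.1 (hval u' s')).1.1 *ᵥ y0 := by rw [h1]
    have hyu : ∀ w : U, Cfsg.hermForm n F q y0 w.1 = 0 := by
      intro w
      rw [← hermForm_swap hF, w.2.2, zero_pow (by omega)]
    rw [eSU_mulVec, eSU_mulVec, hyx, hyu, hyu] at h2
    simp only [one_smul, zero_smul, sub_zero, mul_one] at h2
    -- `y0 + u + (a u + s) x = y0 + u' + (a u' + s') x`
    have h3 := congrArg (fun v => Cfsg.hermForm n F q v y0) h2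
    simp only [hermForm_add_left, hermForm_smul_left, hxy, u.2.2, u'.2.2, hyy, mul_one, add_zero,
      zero_add] at h3
    rw [h3] at h2
    have h4 : u.1 = u'.1 := by
      have := add_right_cancel h2
      exact add_left_cancel this
    have h5 : u = u' := Subtype.ext h4
    subst h5
    have h6 : s.1 = s'.1 := add_left_cancel h3
    rw [Subtype.ext h6]
  have h1 := Nat.card_le_card_of_injective ψ hψ
  rw [Nat.card_prod, card_Sk hF] at h1
  calc q ^ (2 * n) * q ≤ q ^ 4 * Nat.card U * q := Nat.mul_le_mul_right q hUcard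
    _ = q ^ 4 * (Nat.card U * q) := by ring
    _ ≤ q ^ 4 * Nat.card (Qx q x) := Nat.mul_le_mul_left _ h1

end Cfsg.Agent.Lib.Helper63.MinSU
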