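import Mathlib
import Cfsg.Agent.Lib.Helper63.MinSU.Qx
import Cfsg.Agent.Lib.Helper63.MinSU.Arith
import Cfsg.Agent.Lib.Helper54.MinSU.ORB2
import Cfsg.Agent.Lib.Helper15.MinSU.DUAL

set_option autoImplicit false

/-! # S2152 farm (helper83): piece [EVEN4] (helper63) -/

namespace Cfsg.Agent.Lib.Helper63.MinSU

open Matrix Cfsg.Agent.Lib.Helper13 Cfsg.Agent.Lib.Helper5 Cfsg.Agent.Lib.Helper57.RootSU
  Cfsg.Agent.Lib.Helper83.MinSU

variable {F : Type*} [Field F] [Fintype F] {q m n : ℕ}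

/-- `|D| ≤ q^m` for an additive group on which the form is `F_q`-valued -/
theorem card_D_le (hF : Fintype.card F = q ^ 2) (D : AddSubgroup (Fin m → F))
    (hD : ∀ w ∈ D, ∀ w' ∈ D, (Cfsg.hermForm m F q w w') ^ q = Cfsg.hermForm m F q w w') :
    Nat.card D ≤ q ^ m := by
  obtain ⟨κ, hκ0, hκ⟩ := exists_skew_q hF
  have h1 := Cfsg.Agent.Lib.Helper15.MinSU.iso_lemma hF ⊥ ⟨κ, hκ, by simpa using hκ0⟩ D (by
    intro w hw w' hw'
    rw [AddSubgroup.mem_bot, ← hermForm_swap hF w w', hD w hw w' hw', sub_self])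
  rw [mul_comm, pow_mul] at h1
  exact (Nat.pow_le_pow_iff_left (by norm_num)).1 h1

/-- [EVEN4] -/
theorem wb4_even (hF : Fintype.card F = q ^ 2) (h2 : (2 : F) = 0) (D : AddSubgroup (Fin 4 → F))
    (R : Subgroup (Cfsg.SU 4 F q)) (hD0 : D ≠ ⊥)
    (hDq : ∀ c : F, c ^ q = c → ∀ w ∈ D, c • w ∈ D)
    (hD : ∀ w ∈ D, ∀ w' ∈ D, (Cfsg.hermForm 4 F q w w') ^ q = Cfsg.hermForm 4 F q w w')
    (hiso : ∀ w ∈ D, Cfsg.hermForm 4 F q w w = 0)
    (hR : ∀ l ∈ R, ∀ w ∈ D, l.1.1 *ᵥ w ∈ D)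
    (hrad : ∀ x ∈ D, (∀ y ∈ D, Cfsg.hermForm 4 F q x y = 0) → x = 0) :
    Nat.card D * NU q 6 ≤ q ^ 9 * R.index := by
  classical
  have hq := two_le_of_card_sq hF
  -- a hyperbolic pair in `D`
  obtain ⟨x, hxD, hx0⟩ : ∃ x ∈ D, x ≠ 0 := by
    by_contra hcon
    push Not at hcon
    exact hD0 ((AddSubgroup.eq_bot_iff_forall D).2 hcon)
  obtain ⟨y, hyD, hxy0⟩ : ∃ y ∈ D, Cfsg.hermForm 4 F q x y ≠ 0 := by
    by_contra hcon
    push Not at hcon
    exact hx0 (hrad x hxD hcon)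
  set s := Cfsg.hermForm 4 F q y x with hs
  have hs0 : s ≠ 0 := by
    intro h
    apply hxy0
    rw [← hermForm_swap hF, ← hs, h, zero_pow (by omega)]
  have hsq : s ^ q = s := hD y hyD x hxD
  set y0 := s⁻¹ • y with hy0
  have hy0D : y0 ∈ D := hDq s⁻¹ (by rw [inv_pow, hsq]) y hyD
  have hyx : Cfsg.hermForm 4 F q y0 x = 1 := by
    rw [hy0, hermForm_smul_left, ← hs, inv_mul_cancel₀ hs0]
  have hxy : Cfsg.hermForm 4 F q x y0 = 1 := by
    rw [← hermForm_swap hF, hyx, one_pow]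
  have hxx := hiso x hxD
  have hyy := hiso y0 hy0D
  set X := Qx q x with hX
  -- `q |X ⊓ R| ≤ |D|`
  have hF3 : q * Nat.card (X ⊓ R : Subgroup (Cfsg.SU 4 F q)) ≤ Nat.card D := by
    let φ : {c : F // c ^ q = c} × (X ⊓ R : Subgroup (Cfsg.SU 4 F q)) → D := fun p =>
      ⟨p.2.1.1.1 *ᵥ y0 + p.1.1 • y0,
        D.add_mem (hR _ p.2.2.2 y0 hy0D) (hDq _ p.1.2 y0 hy0D)⟩
    have hφ : Function.Injective φ := by
      rintro ⟨c, g⟩ ⟨c', g'⟩ h
      have h1 : g.1.1.1 *ᵥ y0 + c.1 • y0 = g'.1.1.1 *ᵥ y0 + c'.1 • y0 := congrArg Subtype.val h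
      have hgx : ∀ k : (X ⊓ R : Subgroup (Cfsg.SU 4 F q)),
          Cfsg.hermForm 4 F q (k.1.1.1 *ᵥ y0) x = 1 := by
        intro k
        have h3 := SU_preserves k.1 y0 x
        rw [k.2.1.1, hyx] at h3
        exact h3
      have h3 := congrArg (fun v => Cfsg.hermForm 4 F q v x) h1
      simp only [hermForm_add_left, hermForm_smul_left, hgx, hyx, mul_one] at h3
      have h4 : c.1 = c'.1 := add_left_cancel h3
      rw [h4] at h1
      have h5 := Qx_inj x y0 hxx hyy hyx hxy g.1 g'.1 g.2.1 g'.2.1 (add_right_cancel h1)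
      rw [Subtype.ext h4, Subtype.ext h5]
    have h1 := Nat.card_le_card_of_injective φ hφ
    rwa [Nat.card_prod, card_Fq hF] at h1
  -- `q^5 ≤ |X|`
  have hF4 : q ^ 5 ≤ Nat.card X := by
    have h1 := card_Qx_ge hF x y0 hxx hyy hyx hxy
    have h3 : q ^ 4 * q ^ 5 ≤ q ^ 4 * Nat.card X := by
      calc q ^ 4 * q ^ 5 = q ^ (2 * 4) * q := by ring
        _ ≤ _ := h1
    exact Nat.le_of_mul_le_mul_left h3 (by positivity)
  -- the orbit inequality
  let _ := suAct 4 F q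
  have horb := Cfsg.Agent.Lib.Helper54.MinSU.orb2 (G := Cfsg.SU 4 F q) x (D : Set (Fin 4 → F)) hxD
    R X (fun g hg y hy => hR g hg y hy) (fun g hg => hg.1)
  have hcardorb : Nat.card (MulAction.orbit (Cfsg.SU 4 F q) x) = (q ^ 4 - 1) * (q ^ (4 - 1) + 1) :=
    card_orbit_iso hF (by norm_num) (by decide) x hx0 hxx
  rw [hcardorb] at horb
  have hinter : Nat.card ((D : Set (Fin 4 → F)) ∩ MulAction.orbit (Cfsg.SU 4 F q) x : Set _) + 1
      ≤ Nat.card D := by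
    have hsub : insert 0 ((D : Set (Fin 4 → F)) ∩ MulAction.orbit (Cfsg.SU 4 F q) x)
        ⊆ (D : Set (Fin 4 → F)) := by
      intro v hv
      rcases hv with rfl | hv
      · exact D.zero_mem
      · exact hv.1
    have h0 : (0 : Fin 4 → F) ∉ (D : Set (Fin 4 → F)) ∩ MulAction.orbit (Cfsg.SU 4 F q) x := by
      intro h
      exact ((mem_orbit_iso hF (by norm_num) x hx0 hxx 0).1 h.2).1 rfl
    have h1 := Set.ncard_le_ncard hsub (Set.toFinite _)
    rw [Set.ncard_insert_of_notMem h0 (Set.toFinite _)] at h1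
    exact h1
  have hrel := Subgroup.relIndex_mul_relIndex ⊥ (X ⊓ R) X bot_le inf_le_left
  rw [Subgroup.relIndex_bot_left, Subgroup.relIndex_bot_left, Subgroup.inf_relIndex_left] at hrel
  have hδ2 : 2 ≤ Nat.card D := by
    have : Nontrivial D := ⟨⟨⟨x, hxD⟩, 0, fun h => hx0 (congrArg Subtype.val h)⟩⟩
    exact Finite.one_lt_card
  exact even4_arith q (Nat.card D) (R.relIndex X) (Nat.card (X ⊓ R : Subgroup (Cfsg.SU 4 F q)))
    R.index (NU q 6) _ (Nat.card X) horb hinter hrel hF4 hF3 (card_D_le hF D hD) (NU6_le hq) hδ2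

end Cfsg.Agent.Lib.Helper63.MinSU
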