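import Mathlib
import Cfsg.Agent.Lib.Helper63.MinSU.Tools
import Cfsg.Agent.Lib.Helper45.SUWrap
import Cfsg.Agent.S0284

set_option autoImplicit false

/-! # S2152 farm (helper83): orbits of non-isotropic vectors (helper63) -/

namespace Cfsg.Agent.Lib.Helper63.MinSU

open Matrix Cfsg.Agent.Lib.Helper13 Cfsg.Agent.Lib.Helper5 Cfsg.Agent.Lib.Helper57.RootSU
  Cfsg.Agent.Lib.Helper83.MinSU Cfsg.Agent.Lib.Helper45.SUGen

variable {F : Type*} [Field F] [Fintype F] {q m n : ℕ}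

/-- the elements of the abstract transvection group come from `SU_n(q)` -/
theorem exists_su_of_tvGroup (hF : Fintype.card F = q ^ 2) (t : (Fin n → F) ≃ₗ[F] (Fin n → F))
    (ht : t ∈ tvGroup (hermH hF n)) : ∃ g : Cfsg.SU n F q, ∀ x, g.1.1 *ᵥ x = t x := by
  unfold tvGroup at ht
  induction ht using Subgroup.closure_induction with
  | mem t ht =>
    obtain ⟨u, k, hk, hu, rfl⟩ := ht
    have hu' : Cfsg.hermForm n F q u u = 0 := by rwa [hermB_apply] at hu
    have hk' : k + k ^ q = 0 := by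
      have h := hk
      rw [hu, frobQ_apply] at h
      linear_combination h
    refine ⟨ut hF u k, fun x => ?_⟩
    rw [ut_mulVec hF hu' hk', ur_eq_ut, unitaryTransvection_mulVec]
  | one => exact ⟨1, fun x => SU_one_mulVec x⟩
  | mul t t' _ _ ih ih' =>
    obtain ⟨g, hg⟩ := ih
    obtain ⟨g', hg'⟩ := ih'
    exact ⟨g * g', fun x => by rw [SU_mul_mulVec, hg', hg]; rfl⟩
  | inv t _ ih =>
    obtain ⟨g, hg⟩ := ih
    refine ⟨g⁻¹, fun x => ?_⟩
    have h1 : x = g.1.1 *ᵥ (t⁻¹ x) := by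
      rw [hg]
      exact (LinearEquiv.apply_symm_apply t x).symm
    conv_lhs => rw [h1]
    exact SU_inv_mulVec_mulVec g _

/-- `SU_n(q)`, `n ≥ 4`, is transitive on the vectors of a given non-zero norm -/
theorem su_trans_norm (hF : Fintype.card F = q ^ 2) (hn : 4 ≤ n) (u v : Fin n → F)
    (hu : Cfsg.hermForm n F q u u ≠ 0)
    (huv : Cfsg.hermForm n F q u u = Cfsg.hermForm n F q v v) :
    ∃ g : Cfsg.SU n F q, g.1.1 *ᵥ u = v := by
  obtain ⟨t, ht, htu⟩ := tvGroup_trans (hermH hF n) (by rw [Module.finrank_fin_fun]; exact hn)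
    (u := u) (v := v) (by rw [hermB_apply]; exact hu) (by rw [hermB_apply, hermB_apply]; exact huv)
  obtain ⟨g, hg⟩ := exists_su_of_tvGroup hF t ht
  exact ⟨g, by rw [hg, htu]⟩

theorem mem_orbit_norm (hF : Fintype.card F = q ^ 2) (hn : 4 ≤ n) (x : Fin n → F)
    (hx : Cfsg.hermForm n F q x x ≠ 0) (v : Fin n → F) :
    v ∈ suOrbit q x ↔ Cfsg.hermForm n F q v v = Cfsg.hermForm n F q x x := by
  constructor
  · rintro ⟨g, rfl⟩
    exact SU_preserves g x x
  · intro hv
    obtain ⟨g, hg⟩ := su_trans_norm hF hn x v hx hv.symm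
    exact ⟨g, hg⟩

theorem card_orbit_norm (hF : Fintype.card F = q ^ 2) (hn : 4 ≤ n) (he : Even n) (x : Fin n → F)
    (hx : Cfsg.hermForm n F q x x ≠ 0) :
    Nat.card (suOrbit q x) = q ^ (n - 1) * (q ^ n - 1) := by
  have h1 := Cfsg.Agent.S0284.result hF n
  rw [if_pos he] at h1
  have h2 := hcnt_eq_one hF n (Cfsg.hermForm n F q x x) hx (hermForm_swap hF x x)
  unfold hcnt at h2
  rw [h1] at h2
  rw [← h2]
  have h3 : suOrbit q x = {v : Fin n → F | Cfsg.hermForm n F q v v = Cfsg.hermForm n F q x x} := by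
    ext v
    exact mem_orbit_norm hF hn x hx v
  rw [h3]
  rfl

end Cfsg.Agent.Lib.Helper63.MinSU
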